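import Cfsg.Agent.OddLocal.RankTwo.OddSolvable
import Cfsg.Agent.OddLocal.ThreeStep

/-! Odd solvable groups of rank at most two. -/

set_option autoImplicit false
set_option linter.style.haveILetI false

namespace Cfsg.Agent.OddLocal.RankTwo

open Cfsg
open scoped commutatorElement

variable {G : Type*} [Group G]

theorem rankLE_pCore [Finite G] {p : ℕ} [Fact p.Prime] (h : RankLE 2 G ∨ RankLE 2 (fittingSubgroup G)) :
    PRankLE p 2 (pCore p G) := by
  rcases h with h | h
  · exact Components.pRankLE_of_injective (pCore p G).subtype_injective (h p Fact.out)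
  · exact Components.pRankLE_of_injective
      (Subgroup.inclusion_injective (Core.pCore_le_fittingSubgroup p G)) (h p Fact.out)

variable [Finite G] [Group.IsSolvable G]

/-- `p`-rank at most two gives small automorphisms on the reduced `p`-core. -/
theorem oddAutSmall_core_of_pRankLE {p : ℕ} [Fact p.Prime] (hp2 : p ≠ 2) (h : PRankLE p 2 G) :
    OddAutSmall p (pCore p (G ⧸ pPrimeCore p G)) := by
  obtain ⟨S⟩ := (inferInstance : Nonempty (Sylow p G))
  obtain ⟨f, hf, -⟩ := exists_embedding_core S
  exact oddAutSmall_of_rankLE_two hp2 (Core.isPGroup_pCore p _)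
    (Components.pRankLE_of_injective (f := (S : Subgroup G).subtype.comp f)
      ((S : Subgroup G).subtype_injective.comp hf) h)

/-- Characteristic subgroups of a Sylow subgroup inside its derived subgroup are normal. -/
theorem char_in_derived_normal (hG' : commutator G ≤ fittingSubgroup G) {q : ℕ} [hq : Fact q.Prime]
    (S : Sylow q G) (T : Subgroup (S : Subgroup G)) [T.Characteristic]
    (hT : T.map (S : Subgroup G).subtype ≤ ⁅(S : Subgroup G), (S : Subgroup G)⁆) :
    (T.map (S : Subgroup G).subtype).Normal := by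
  set T' := T.map (S : Subgroup G).subtype with hT'
  set U := pCore q G
  set D := pPrimeCore q G
  have hFle : fittingSubgroup G ≤ U ⊔ D := by
    rw [Core.fittingSubgroup_eq_iSup]; exact Core.iSup_pCore_le_sup q G
  have hSD : (S : Subgroup G) ⊓ D = ⊥ := by
    refine Subgroup.inf_eq_bot_of_coprime ?_
    obtain ⟨k, hk⟩ := S.isPGroup'.exists_card_eq
    rw [hk]
    exact (Core.card_pPrimeCore_coprime q G).symm.pow_left k
  have hUS : U ≤ (S : Subgroup G) := Core.pCore_le_sylow S
  have hder : ⁅(S : Subgroup G), (S : Subgroup G)⁆ ≤ U := by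
    intro x hx
    have hxS : x ∈ (S : Subgroup G) := (Subgroup.commutator_le.mpr fun a ha b hb => by
      rw [commutatorElement_def]; exact mul_mem (mul_mem (mul_mem ha hb) (inv_mem ha)) (inv_mem hb)) hx
    obtain ⟨u, hu, d, hd, rfl⟩ := Subgroup.mem_sup_of_normal_left.mp
      (hFle (hG' ((Subgroup.commutator_mono le_top le_top).trans (commutator_def G).ge hx)))
    have hdS : d ∈ (S : Subgroup G) := by
      have h2 := mul_mem (inv_mem (hUS hu)) hxS
      rwa [inv_mul_cancel_left] at h2
    have hd' : d ∈ (S : Subgroup G) ⊓ D := ⟨hdS, hd⟩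
    rw [hSD, Subgroup.mem_bot] at hd'
    simpa [hd'] using hu
  have hNS : Subgroup.normalizer ((S : Subgroup G) : Set G) ≤ Subgroup.normalizer (T' : Set G) :=
    normalizer_le_normalizer_map_char _ _
  have hDN : D ≤ Subgroup.normalizer (T' : Set G) := by
    refine le_trans ?_ (Subgroup.centralizer_le_normalizer _)
    rw [Subgroup.le_centralizer_iff]
    exact (hT.trans hder).trans (Core.pCore_le_centralizer_pPrimeCore q G)
  set M := (S : Subgroup G) ⊔ commutator G
  haveI : M.Normal := ⟨fun m hm g => by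
    have hc : ⁅g, m⁆ ∈ M :=
      Subgroup.mem_sup_right (Subgroup.commutator_mem_commutator (Subgroup.mem_top g) (Subgroup.mem_top m))
    simpa [commutatorElement_def] using mul_mem hc hm⟩
  have hfr := Sylow.normalizer_sup_eq_top (S.subtype (le_sup_left : (S : Subgroup G) ≤ M))
  rw [Sylow.coe_subtype, Subgroup.subgroupOf_map_subtype, inf_eq_left.mpr (le_sup_left : _ ≤ M)] at hfr
  refine Subgroup.normalizer_eq_top_iff.mp (eq_top_iff.mpr (hfr.ge.trans (sup_le hNS (sup_le ?_ ?_))))
  · exact Subgroup.le_normalizer.trans hNS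
  · refine hG'.trans (hFle.trans (sup_le ?_ hDN))
    exact hUS.trans (Subgroup.le_normalizer.trans hNS)

/-- The primes above `p` carry a characteristic Hall subgroup. -/
theorem exists_char_hall (hodd : Odd (Nat.card G)) (h : RankLE 2 G ∨ RankLE 2 (fittingSubgroup G))
    (hG' : commutator G ≤ fittingSubgroup G) (p : ℕ) :
    ∃ N : Subgroup G, N.Characteristic ∧ IsPiHall {q | q.Prime ∧ p < q} N := by
  set π : Set ℕ := {q | q.Prime ∧ p < q}
  set N := piCore π G with hN
  refine ⟨N, inferInstance, Core.isPiNat_card_piCore π G, fun q hq hqπ => ?_⟩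
  haveI := Fact.mk hq
  obtain ⟨S⟩ := (inferInstance : Nonempty (Sylow q G))
  suffices hle : (S : Subgroup G) ≤ N from fun hd => S.not_dvd_index (hd.trans (Subgroup.index_dvd_of_le hle))
  intro x hx
  set D : Subgroup G := ⨆ s : {s : Nat.Primes // (s : ℕ) ≤ p}, pCore (s : Nat.Primes) G with hD
  haveI : D.Normal := Subgroup.iSup_normal _
  set C := Subgroup.centralizer (D : Set G) with hC
  haveI : C.Normal := Subgroup.normal_centralizer
  have hxC : x ∈ C := by
    rw [hC, ← Subgroup.zpowers_le, Subgroup.le_centralizer_iff]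
    refine iSup_le fun s => Subgroup.le_centralizer_iff.mp (Subgroup.zpowers_le.mpr ?_)
    haveI := Fact.mk s.1.2
    set r := ((s : Nat.Primes) : ℕ)
    set f : G →* MulAut (pCore r G) := MulAut.conjNormal
    by_contra hne
    have hf1 : f x ≠ 1 := fun e => hne ((conjNormal_eq_one_iff _).mp e)
    obtain ⟨n, hn⟩ := S.isPGroup' ⟨x, hx⟩
    have hn' : x ^ q ^ n = 1 := by simpa using congrArg Subtype.val hn
    obtain ⟨j, -, hj⟩ := (Nat.dvd_prime_pow hq).mp
      (orderOf_dvd_of_pow_eq_one (by rw [← map_pow, hn', map_one] : f x ^ q ^ n = 1))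
    have hj0 : j ≠ 0 := fun h0 => hf1 (orderOf_eq_one_iff.mp (by rw [hj, h0, pow_zero]))
    set a := f x ^ q ^ (j - 1)
    have ha : orderOf a = q := by
      rw [orderOf_pow_of_dvd (pow_ne_zero _ hq.ne_zero) (hj ▸ pow_dvd_pow q (Nat.sub_le j 1)), hj,
        Nat.pow_div (Nat.sub_le j 1) hq.pos, show j - (j - 1) = 1 by omega, pow_one]
    have hqodd : q ≠ 2 := fun h2 => by
      have hd : q ∣ Nat.card G := by
        refine dvd_trans ?_ ((orderOf_map_dvd f x).trans (orderOf_dvd_natCard x))
        rw [hj]; exact dvd_pow_self q hj0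
      have := hodd.of_dvd_nat hd
      rw [h2] at this
      exact absurd this (by decide)
    by_cases hr2 : r = 2
    · obtain ⟨k, hk⟩ := Core.card_pCore_eq_pow r G
      rcases Nat.eq_zero_or_pos k with rfl | hk0
      · refine hne (Subgroup.mem_centralizer_iff.mpr fun y hy => ?_)
        rw [Subgroup.card_eq_one.mp (hk.trans (pow_zero _)), SetLike.mem_coe, Subgroup.mem_bot] at hy
        simp [hy]
      · have := hodd.of_dvd_nat (Subgroup.card_subgroup_dvd_card (pCore r G))
        rw [hk, hr2] at this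
        exact absurd ((Nat.odd_pow_iff hk0.ne').mp this) (by decide)
    have hlt := (oddAutSmall_of_rankLE_two hr2 (Core.isPGroup_pCore r G) (rankLE_pCore h)).lt hr2
      (a := a) (ha ▸ hq) (by rw [ha]; exact hqodd) (by
        rw [ha]
        intro e
        have := s.2
        have := hqπ.2
        omega)
    have := s.2; have := hqπ.2
    omega
  set ρ := QuotientGroup.mk' N with hρ
  haveI : (C.map ρ).Normal := Subgroup.Normal.map inferInstance _ (QuotientGroup.mk'_surjective N)
  have hFle : fittingSubgroup G ≤ N ⊔ D := by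
    rw [Core.fittingSubgroup_eq_iSup]
    refine iSup_le fun r => ?_
    haveI := Fact.mk r.2
    rcases le_or_gt (r : ℕ) p with hr | hr
    · exact le_sup_of_le_right (le_iSup (fun s : {s : Nat.Primes // (s : ℕ) ≤ p} => pCore (s : Nat.Primes) G) ⟨r, hr⟩)
    · refine le_sup_of_le_left (Core.le_piCore inferInstance ?_)
      obtain ⟨k, hk⟩ := Core.card_pCore_eq_pow (r : ℕ) G
      rw [hk]
      exact Core.isPiNat_prime_pow r.2 (show (r : ℕ) ∈ π from ⟨r.2, hr⟩) k
  have hnil : Group.IsNilpotent ↥(C.map ρ) := by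
    refine Subgroup.isNilpotent_of_ker_le_center Abelianization.of ?_
    rw [Abelianization.ker_of, commutator_def, Subgroup.commutator_le]
    rintro ⟨_, a, ha, rfl⟩ _ ⟨_, b, hb, rfl⟩ _
    rw [Subgroup.mem_center_iff]
    rintro ⟨_, c, hc, rfl⟩
    refine (commutatorElement_eq_one_iff_mul_comm.mp ?_).symm
    apply Subtype.ext
    show ⁅⁅ρ a, ρ b⁆, ρ c⁆ = 1
    rw [← map_commutatorElement, ← map_commutatorElement]
    refine (QuotientGroup.eq_one_iff _).mpr ?_
    obtain ⟨n, hn, d, hd, hnd⟩ := Subgroup.mem_sup_of_normal_left.mp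
      (hFle (hG' (Subgroup.commutator_mem_commutator (Subgroup.mem_top a) (Subgroup.mem_top b))))
    rw [show (⁅a, b⁆ : G) = n * d from hnd.symm, commutatorElement_def,
      show n * d * c * (n * d)⁻¹ * c⁻¹ = n * (d * c * d⁻¹) * n⁻¹ * c⁻¹ by group,
      Subgroup.mem_centralizer_iff.mp hc d hd, mul_inv_cancel_right,
      show n * c * n⁻¹ * c⁻¹ = n * (c * n⁻¹ * c⁻¹) by group]
    exact mul_mem hn (Subgroup.Normal.conj_mem inferInstance _ (inv_mem hn) c)
  have hCF : C.map ρ ≤ fittingSubgroup (G ⧸ N) := Core.le_fittingSubgroup inferInstance hnil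
  have hqcore : pCore q (G ⧸ N) = ⊥ := by
    refine eq_bot_iff.mpr ((Core.le_piCore (π := π) inferInstance ?_).trans
      (Core.piCore_quotient_piCore π G).le)
    obtain ⟨k, hk⟩ := Core.card_pCore_eq_pow q (G ⧸ N)
    rw [hk]
    exact Core.isPiNat_prime_pow hq hqπ k
  have hx' : ρ x ∈ pPrimeCore q (G ⧸ N) := by
    have hm : ρ x ∈ fittingSubgroup (G ⧸ N) := hCF ⟨x, hxC, rfl⟩
    rw [Core.fittingSubgroup_eq_iSup] at hm
    have := Core.iSup_pCore_le_sup q (G ⧸ N) hm
    rwa [hqcore, bot_sup_eq] at this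
  obtain ⟨n, hn⟩ := S.isPGroup' ⟨x, hx⟩
  have hn' : x ^ q ^ n = 1 := by simpa using congrArg Subtype.val hn
  refine (QuotientGroup.eq_one_iff x).mp (orderOf_eq_one_iff.mp (Nat.eq_one_of_dvd_coprimes
    ((Core.card_pPrimeCore_coprime q (G ⧸ N)).pow_right n) (Subgroup.orderOf_dvd_natCard _ hx')
    (orderOf_dvd_of_pow_eq_one ((map_pow ρ x _).symm.trans (by rw [hn', map_one])))))

end Cfsg.Agent.OddLocal.RankTwo
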