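import Cfsg.Agent.OddLocal.RankTwo.NarrowAut
import Cfsg.Agent.OddLocal.RankTwo.Structure

/-! Odd solvable groups with narrow Sylow subgroups. -/

set_option autoImplicit false
set_option linter.style.haveILetI false

namespace Cfsg.Agent.OddLocal.RankTwo

open Cfsg

variable {G : Type*} [Group G]

theorem oddAutSmall_of_maxEASq [Finite G] {p : ℕ} [hp : Fact p.Prime] (hp2 : p ≠ 2) (hR : IsPGroup p G)
    (hr : ¬ PRankLE p 2 G) {E : Subgroup G} (hE : MaxEASq p E) : OddAutSmall p G := by
  obtain ⟨h1, h2⟩ := aut_of_maxEASq hp2 hR hr hE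
  refine ⟨fun X _ _ => h2 X, fun a ha ha2 hap => Or.inl ?_⟩
  have := Nat.odd_iff.mp (hp.out.odd_of_ne_two hp2)
  exact (Nat.coprime_two_left.mpr (ha.odd_of_ne_two ha2)).mul_dvd_of_dvd_of_dvd (by omega)
    (h1 a ((Nat.coprime_primes ha hp.out).mpr hap))

theorem index_pCore_congr {p : ℕ} (N M : Subgroup G) [N.Normal] [M.Normal] (h : N = M) :
    (pCore p (G ⧸ N)).index = (pCore p (G ⧸ M)).index := by
  subst h; rfl

variable [Finite G] [Group.IsSolvable G]

theorem oddAutSmall_core_of_narrow {p : ℕ} [hp : Fact p.Prime] (hp2 : p ≠ 2) (S : Sylow p G)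
    (hS : IsNarrow p (S : Subgroup G)) (hpl : ¬ PRankLE p 2 (S : Subgroup G) → PLengthLE p 1 G) :
    OddAutSmall p (pCore p (G ⧸ pPrimeCore p G)) := by
  obtain ⟨f, hf, hfs⟩ := exists_embedding_core S
  by_cases hr : PRankLE p 2 (S : Subgroup G)
  · exact oddAutSmall_of_rankLE_two hp2 (Core.isPGroup_pCore p _) (Components.pRankLE_of_injective hf hr)
  · haveI := (upperPSeries p G 1).2
    haveI := (upperPSeries p G 2).2
    have h3 : (upperPSeries p G (2 + 1)).1 = ⊤ := hpl hr
    rw [Core.upperPSeries_succ_even p G even_two, ← Subgroup.index_eq_one,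
      Subgroup.index_comap_of_surjective _ (QuotientGroup.mk'_surjective _), Subgroup.index_eq_one] at h3
    have hc := Core.card_pPrimeCore_coprime p (G ⧸ (upperPSeries p G 2).1)
    rw [h3, Subgroup.card_top, ← Subgroup.index_eq_card, Core.upperPSeries_succ_odd p G (by decide : ¬ Even 1),
      Subgroup.index_comap_of_surjective _ (QuotientGroup.mk'_surjective _),
      index_pCore_congr _ _ (Core.upperPSeries_one p G)] at hc
    exact OddAutSmall.congr (MulEquiv.ofBijective f ⟨hf, hfs hc⟩).symm
      (oddAutSmall_of_narrow hp2 S.isPGroup' hS)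

/-- `G' ≤ F(G)` when an elementary abelian `E ≤ F(G)` has small centralizer in `F(G)`. -/
theorem derived_le_fitting_of_small_centralizer (hodd : Odd (Nat.card G)) {p : ℕ} [hp : Fact p.Prime]
    (E : Subgroup G) (hE : E ≤ fittingSubgroup G) (hEe : IsElementaryAbelian p E)
    (hr : RankLE 2 ↥(fittingSubgroup G ⊓ Subgroup.centralizer (E : Set G))) :
    commutator G ≤ fittingSubgroup G := by
  set P := pCore p G with hP
  have hEp : IsPGroup p E := Components.ea_isPGroup hEe
  have hEP : E ≤ P := by
    intro x hx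
    have hFle : fittingSubgroup G ≤ P ⊔ pPrimeCore p G := by
      rw [Core.fittingSubgroup_eq_iSup]; exact Core.iSup_pCore_le_sup p G
    obtain ⟨u, hu, d, hd, hud⟩ := Subgroup.mem_sup_of_normal_left.mp (hFle (hE hx))
    have hcomm : Commute u d := (Subgroup.mem_centralizer_iff.mp (Core.pCore_le_centralizer_pPrimeCore p G hu) d hd).symm
    obtain ⟨a, ha⟩ := Core.isPGroup_pCore p G ⟨u, hu⟩
    obtain ⟨b, hb⟩ := hEp ⟨x, hx⟩
    have hd1 : d ^ p ^ (a + b) = 1 := by
      have h1 : u ^ p ^ (a + b) = 1 := by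
        rw [pow_add, pow_mul, show u ^ p ^ a = 1 by simpa using congrArg Subtype.val ha, one_pow]
      have h2 : x ^ p ^ (a + b) = 1 := by
        rw [add_comm a b, pow_add, pow_mul, show x ^ p ^ b = 1 by simpa using congrArg Subtype.val hb, one_pow]
      rw [← hud, hcomm.mul_pow, h1, one_mul] at h2
      exact h2
    have : d = 1 := orderOf_eq_one_iff.mp (Nat.eq_one_of_dvd_coprimes
      ((Core.card_pPrimeCore_coprime p G).pow_right _) (Subgroup.orderOf_dvd_natCard _ hd)
      (orderOf_dvd_of_pow_eq_one hd1))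
    rw [← hud, this, mul_one]
    exact hu
  refine commutator_le_fitting hodd fun q hq hq2 => ?_
  haveI := Fact.mk hq
  by_cases hqp : q = p
  · subst hqp
    by_cases hrP : PRankLE q 2 P
    · exact oddAutSmall_of_rankLE_two hq2 (Core.isPGroup_pCore q G) hrP
    have hPp : IsPGroup q P := Core.isPGroup_pCore q G
    set E' := E.subgroupOf P
    have hE' : IsElementaryAbelian q E' := PLocal.isEA_comap hEe P.subtype P.subtype_injective
    let Z : Subgroup P :=
      { carrier := {x | x ∈ Subgroup.center P ∧ x ^ q = 1}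
        one_mem' := ⟨one_mem _, one_pow _⟩
        mul_mem' := fun {a b} ha hb => ⟨mul_mem ha.1 hb.1, by
          rw [(show Commute a b from (Subgroup.mem_center_iff.mp ha.1 b).symm).mul_pow, ha.2, hb.2, one_mul]⟩
        inv_mem' := fun {a} ha => ⟨inv_mem ha.1, by rw [inv_pow, ha.2, inv_one]⟩ }
    have hZea : IsElementaryAbelian q Z :=
      ⟨⟨⟨fun a b => Subtype.ext (Subgroup.mem_center_iff.mp b.2.1 a)⟩⟩, fun a ha => ha.2⟩
    have hZc : Z ≤ Subgroup.center P := fun a ha => ha.1
    have hX : IsElementaryAbelian q (E' ⊔ Z) := PLocal.isEA_sup hE' hZea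
      (Subgroup.le_centralizer_iff.mp fun a ha =>
        Subgroup.mem_centralizer_iff.mpr fun y _ => Subgroup.mem_center_iff.mp (hZc ha) y)
    have hmax : ∀ B : Subgroup P, IsElementaryAbelian q B → E' ⊔ Z ≤ B → Nat.card B ≤ q ^ 2 := by
      intro B hB hle
      set K := fittingSubgroup G ⊓ Subgroup.centralizer (E : Set G)
      have hBle : B.map P.subtype ≤ K := by
        rintro _ ⟨b, hb, rfl⟩
        refine ⟨Core.pCore_le_fittingSubgroup q G b.2, Subgroup.mem_centralizer_iff.mpr fun e he => ?_⟩
        have heB : (⟨e, hEP he⟩ : P) ∈ B := hle (Subgroup.mem_sup_left (Subgroup.mem_subgroupOf.mpr he))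
        exact congrArg Subtype.val (PLocal.comm_of_EA hB heB hb)
      have hB' := PLocal.isEA_comap (PLocal.isEA_map hB P.subtype) K.subtype K.subtype_injective
      have h2 := hr q hq _ hB'.1 hB'.2
      change Nat.card ↥((B.map P.subtype).subgroupOf K) ≤ q ^ 2 at h2
      rwa [Nat.card_congr (Subgroup.subgroupOfEquivOfLe hBle).toEquiv, Core.card_map_subtype] at h2
    have hXc : Nat.card ↥(E' ⊔ Z) = q ^ 2 := by
      obtain ⟨k, hk⟩ := (Components.ea_isPGroup hX).exists_card_eq
      have hk2 : k ≤ 2 := by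
        have := hmax _ hX le_rfl
        rw [hk] at this
        exact (Nat.pow_le_pow_iff_right hq.one_lt).mp this
      by_contra hne
      have hk1 : k ≤ 1 := by
        rcases (show k ≤ 1 ∨ k = 2 by omega) with h | h
        · exact h
        · exact absurd (hk.trans (by rw [h])) hne
      obtain ⟨F, hF, hFc⟩ := exists_ea_of_rank hrP
      have hcen : E' ⊔ Z ≤ Subgroup.center P := by
        refine sup_le ?_ hZc
        by_cases hb : E' = ⊥
        · rw [hb]; exact bot_le
        haveI : Nontrivial P := by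
          by_contra hnt
          rw [not_nontrivial_iff_subsingleton] at hnt
          exact hb (Subsingleton.elim _ _)
        have hZ0 : Z ≠ ⊥ := by
          haveI := hPp.center_nontrivial
          obtain ⟨⟨z, hz⟩, hzo⟩ := exists_prime_orderOf_dvd_card' (G := Subgroup.center P) q (by
            obtain ⟨m, hm⟩ := (hPp.to_subgroup (Subgroup.center P)).exists_card_eq
            rw [hm]
            exact dvd_pow_self q fun h0 => Finite.one_lt_card.ne' (hm.trans (by rw [h0, pow_zero])))
          intro h0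
          have hzp : z ^ q = 1 := by
            rw [← hzo]
            exact congrArg Subtype.val (pow_orderOf_eq_one (⟨z, hz⟩ : Subgroup.center P))
          have hz1 : z = 1 := Subgroup.mem_bot.mp (h0 ▸ (⟨hz, hzp⟩ : z ∈ Z))
          rw [show (⟨z, hz⟩ : Subgroup.center P) = 1 from Subtype.ext hz1, orderOf_one] at hzo
          exact hq.ne_one hzo.symm
        have heq : Z = E' ⊔ Z := by
          refine Subgroup.eq_of_le_of_card_ge le_sup_right ?_
          rw [hk]
          obtain ⟨m, hm⟩ := (Components.ea_isPGroup hZea).exists_card_eq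
          rw [hm]
          refine Nat.pow_le_pow_right hq.pos (hk1.trans (Nat.one_le_iff_ne_zero.mpr fun h0 => hZ0 ?_))
          exact Subgroup.card_eq_one.mp (by rw [hm, h0, pow_zero])
        exact (le_sup_left.trans heq.ge).trans hZc
      have hFX : IsElementaryAbelian q ((E' ⊔ Z) ⊔ F) := PLocal.isEA_sup hX hF fun a ha =>
        Subgroup.mem_centralizer_iff.mpr fun y _ => Subgroup.mem_center_iff.mp (hcen ha) y
      exact absurd ((Subgroup.card_le_of_le le_sup_right).trans (hmax _ hFX le_sup_left)) (not_le.mpr hFc)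
    exact oddAutSmall_of_maxEASq hq2 hPp hrP ⟨hX, hXc, fun B hB hle =>
      (Subgroup.eq_of_le_of_card_ge hle ((hmax B hB hle).trans hXc.ge)).symm⟩
  · refine oddAutSmall_of_rankLE_two hq2 (Core.isPGroup_pCore q G) ?_
    have hle : pCore q G ≤ fittingSubgroup G ⊓ Subgroup.centralizer (E : Set G) := by
      refine le_inf (Core.pCore_le_fittingSubgroup q G) ((Core.pCore_le_centralizer_pPrimeCore q G).trans
        (Subgroup.centralizer_le (hEP.trans ?_)))
      exact Core.pCore_le_pPrimeCore_of_ne (Ne.symm hqp)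
    exact Components.pRankLE_of_injective (Subgroup.inclusion_injective hle) (hr q hq)

end Cfsg.Agent.OddLocal.RankTwo
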