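import Cfsg.Agent.OddLocal.RankTwo.RankTwoAmbient
import Cfsg.Agent.OddLocal.RankTwo.NarrowSolvable

/-! Odd operator groups on narrow `p`-groups. -/

set_option autoImplicit false
set_option linter.style.haveILetI false

namespace Cfsg.Agent.OddLocal.RankTwo

open Cfsg
open scoped commutatorElement

variable {G : Type*} [Group G] [Finite G] {p : ℕ} [hp : Fact p.Prime]

theorem narrow_operator (hp2 : p ≠ 2) (R A : Subgroup G) (hR : IsPGroup p R) (hRn : IsNarrow p R)
    (hA : A ≤ Subgroup.normalizer (R : Set G)) (hAs : Group.IsSolvable A) (hAodd : Odd (Nat.card A))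
    (hfaith : A ⊓ Subgroup.centralizer (R : Set G) = ⊥) :
    (commutator ↥A ≤ pCore p ↥A ∧ ((pCore p ↥A).index).Coprime p) ∧
      (¬ PRankLE p 2 R → ∀ a ∈ A, (orderOf a).Coprime p → orderOf a ∣ p - 1) ∧
      ((Nat.card A).Prime → ¬ Nat.card A ∣ p * (p - 1) →
        2 * Nat.card A ∣ p + 1 ∧ (⁅R, A⁆ = R → ¬ IsMulCommutative R → Nat.card R = p ^ 3)) := by
  set f : A →* MulAut R := R.normalizerMonoidHom.comp (Subgroup.inclusion hA) with hf
  have hinj : Function.Injective f := by
    refine (injective_iff_map_eq_one f).mpr fun a ha => Subtype.ext ?_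
    refine Subgroup.mem_bot.mp (hfaith ▸ ⟨a.2, Subgroup.mem_centralizer_iff.mpr fun r hr => ?_⟩)
    have h := congrArg Subtype.val (DFunLike.congr_fun ha ⟨r, hr⟩)
    rw [hf, inducedAut_coe hA] at h
    exact (mul_inv_eq_iff_eq_mul.mp h).symm
  have hsmall := oddAutSmall_of_narrow hp2 hR hRn
  have hX : Nat.card (inducedAut hA) = Nat.card A :=
    (Nat.card_congr (MonoidHom.ofInjective hinj).toEquiv).symm
  have hAX : commutator A ≤ pCore p A := by
    refine Core.le_pCore inferInstance fun x => ?_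
    haveI := hAs
    obtain ⟨k, hk⟩ := hsmall.1 f.range (show Odd (Nat.card (inducedAut hA)) from hX.symm ▸ hAodd)
      (Group.isSolvable_of_surjective (f := f.rangeRestrict) f.rangeRestrict_surjective)
      ⟨f.rangeRestrict x, by
        rw [commutator_def, ← Subgroup.map_top_of_surjective f.rangeRestrict f.rangeRestrict_surjective,
          ← Subgroup.map_commutator]
        exact ⟨x, x.2, rfl⟩⟩
    refine ⟨k, Subtype.ext (hinj ?_)⟩
    have h := congrArg (fun z : commutator f.range => (((z : f.range) : MulAut R))) hk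
    simpa using h
  have hidx : ((pCore p A).index).Coprime p := by
    obtain ⟨S⟩ := (inferInstance : Nonempty (Sylow p A))
    haveI hSn : (S : Subgroup A).Normal := ⟨fun s hs g => by
      have hm : ⁅g, s⁆ ∈ (S : Subgroup A) := Core.pCore_le_sylow S
        (hAX (Subgroup.commutator_mem_commutator (Subgroup.mem_top g) (Subgroup.mem_top s)))
      simpa [commutatorElement_def] using mul_mem hm hs⟩
    rw [le_antisymm (Core.pCore_le_sylow S) (Core.le_pCore hSn S.isPGroup')]
    exact (hp.out.coprime_iff_not_dvd.mpr S.not_dvd_index).symm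
  have hord : ∀ a : A, orderOf (f a) = orderOf (a : G) := fun a => by
    rw [orderOf_injective f hinj, Subgroup.orderOf_coe]
  have hbig : ¬ PRankLE p 2 R → ∀ a ∈ A, (orderOf a).Coprime p → orderOf a ∣ p - 1 := by
    intro hr a ha hcop
    obtain ⟨E, hE⟩ := exists_maxEASq_of_narrow hR hRn hr
    have h := (aut_of_maxEASq hp2 hR hr hE).1 (f ⟨a, ha⟩) (by rw [hord]; exact hcop)
    rwa [hord] at h
  refine ⟨⟨hAX, hidx⟩, hbig, fun hq hnd => ?_⟩
  set q := Nat.card A with hqdef
  haveI := Fact.mk hq
  have hqp : q ≠ p := fun h => hnd (h ▸ dvd_mul_right q (p - 1))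
  have hq1 : ¬ q ∣ p - 1 := fun h => hnd (dvd_mul_of_dvd_right h p)
  have hcop : q.Coprime p := (Nat.coprime_primes hq hp.out).mpr hqp
  obtain ⟨g, hg⟩ := (isCyclic_of_prime_card (α := A) hqdef.symm).exists_ofOrder_eq_natCard
  have hgo : orderOf (g : G) = q := by rw [Subgroup.orderOf_coe, hg]
  have hfo : orderOf (f g) = q := by rw [hord, hgo]
  have hq2 : q ≠ 2 := fun h => by
    rw [h] at hAodd
    exact absurd hAodd (by decide)
  have hr : PRankLE p 2 R := by
    by_contra hr
    have := hbig hr g g.2 (by rw [hgo]; exact hcop)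
    rw [hgo] at this
    exact hq1 this
  refine ⟨?_, fun hRA hnc => ?_⟩
  · have h := hsmall.2 (f g) (by rw [hfo]; exact hq) (by rw [hfo]; exact hq2) (by rw [hfo]; exact hqp)
    rw [hfo] at h
    exact h.resolve_left fun h => hq1 ((dvd_mul_left q 2).trans h)
  have hR1 : R ≠ ⊥ := fun h => hnc (by subst h; infer_instance)
  have hcopX := inducedAut_coprime (p := p) hA hcop
  have hXodd := inducedAut_odd hA hAodd
  have hgen := inducedAut_gen hA hRA
  have hp3 := three_lt_of_operator hp2 hR hr _ hcopX hXodd (inducedAut_ne_bot hA hRA hR1)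
  set Ω := Subgroup.closure {x : R | x ^ p = 1} with hΩ
  have hbig' : p ^ 2 < Nat.card Ω := by
    by_contra hle
    have hm := metacyclic_of_index_powers hp2 hR (index_powers_le _ hp3 hR (not_lt.mp hle) le_rfl)
    have h := (metacyclic_action hp2 R A hR hm hA hcop).1
    rw [hRA] at h
    exact hnc h
  obtain ⟨hcard, -, hcyc, hcen, -, hsup⟩ := rankTwo_central hp3 hR hr _ hcopX hXodd hgen Ω hΩ hbig'
  haveI hΩc : Ω.Characteristic := Subgroup.characteristic_iff_le_comap.mpr fun e x hx => by
    rw [Subgroup.mem_comap, hΩ, mem_omega_iff hp3 hR hr]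
    rw [hΩ, mem_omega_iff hp3 hR hr] at hx
    rw [MulEquiv.coe_toMonoidHom, ← map_pow, hx, map_one]
  set C := Subgroup.centralizer (Ω : Set R) with hC
  haveI : C.Characteristic := inferInstanceAs (Subgroup.centralizer (Ω : Set R)).Characteristic
  haveI := hcyc
  have hfixC : ∀ b ∈ inducedAut hA, ∀ c ∈ C, b c = c := by
    intro b hb c hc
    set α := autRestrict C b with hα
    have h1 : orderOf α ∣ q := by
      refine (orderOf_map_dvd (autRestrict C) b).trans ?_
      rw [← hX]
      exact Subgroup.orderOf_dvd_natCard _ hb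
    have h2 : orderOf α ∣ Nat.card (MulAut C) := orderOf_dvd_natCard α
    rw [IsCyclic.card_mulAut] at h2
    obtain ⟨k, hk⟩ := (hR.to_subgroup C).exists_card_eq
    have h3 : q.Coprime (Nat.card C).totient := by
      rw [hk]
      rcases Nat.eq_zero_or_pos k with rfl | hk0
      · simp
      · rw [Nat.totient_prime_pow hp.out hk0]
        exact Nat.Coprime.mul_right (hcop.pow_right _) ((hq.coprime_iff_not_dvd).mpr hq1)
    have h4 := orderOf_eq_one_iff.mp (Nat.eq_one_of_dvd_coprimes h3 h1 h2)
    have := congrArg (fun ψ : MulAut C => ((ψ ⟨c, hc⟩ : C) : R)) h4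
    simpa [hα, autRestrict_apply] using this
  have htop : (⊤ : Subgroup R) ≤ Ω := by
    rw [← hgen, Subgroup.closure_le]
    rintro _ ⟨b, hb, x, rfl⟩
    obtain ⟨w, hw, c, hc, rfl⟩ := Subgroup.mem_sup_of_normal_left.mp (hsup.ge (Subgroup.mem_top x))
    rw [map_mul, hfixC b hb c hc, mul_inv_rev, mul_assoc, ← mul_assoc c c⁻¹, mul_inv_cancel, one_mul]
    exact mul_mem hw (inv_mem (Subgroup.characteristic_iff_le_comap.mp hΩc b hw))
  rw [← Subgroup.card_top (G := R), le_antisymm htop le_top, hcard]

end Cfsg.Agent.OddLocal.RankTwo
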