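import Cfsg.Agent.OddLocal.RankTwo.RankTwoCentral

/-! `R = [R, A]` of rank at most two, in an ambient group. -/

set_option autoImplicit false
set_option linter.style.haveILetI false

namespace Cfsg.Agent.OddLocal.RankTwo

open Cfsg
open scoped commutatorElement

variable {G : Type*} [Group G] [Finite G] {p : ℕ} [hp : Fact p.Prime]

omit [Finite G] hp in
/-- `[R, A] = R` for the induced automorphisms. -/
theorem inducedAut_gen {R A : Subgroup G} (hA : A ≤ Subgroup.normalizer (R : Set G)) (hRA : ⁅R, A⁆ = R) :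
    Subgroup.closure {z : R | ∃ a ∈ inducedAut hA, ∃ x : R, z = x * (a x)⁻¹} = ⊤ := by
  refine Subgroup.map_injective R.subtype_injective ?_
  rw [← MonoidHom.range_eq_map, Subgroup.range_subtype]
  refine le_antisymm (Subgroup.map_subtype_le _) ?_
  conv_lhs => rw [← hRA]
  rw [Subgroup.commutator_le]
  intro u hu a ha
  refine ⟨⟨u, hu⟩ * ((R.normalizerMonoidHom.comp (Subgroup.inclusion hA)) ⟨a, ha⟩ ⟨u, hu⟩)⁻¹,
    Subgroup.subset_closure ⟨_, ⟨⟨a, ha⟩, rfl⟩, _, rfl⟩, ?_⟩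
  rw [commutatorElement_def, map_mul, map_inv, Subgroup.coe_subtype, inducedAut_coe]
  group

omit [Finite G] hp in
theorem inducedAut_ne_bot {R A : Subgroup G} (hA : A ≤ Subgroup.normalizer (R : Set G)) (hRA : ⁅R, A⁆ = R)
    (hR1 : R ≠ ⊥) : inducedAut hA ≠ ⊥ := by
  intro h
  have h1 := inducedAut_gen hA hRA
  rw [h] at h1
  have h2 : (⊤ : Subgroup R) ≤ ⊥ := by
    rw [← h1, Subgroup.closure_le]
    rintro z ⟨a, ha, x, rfl⟩
    rw [Subgroup.mem_bot.mp ha, MulAut.one_apply, mul_inv_cancel]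
    exact rfl
  refine hR1 (eq_bot_iff.mpr fun r hr => ?_)
  exact Subgroup.mem_bot.mpr (congrArg Subtype.val (Subgroup.mem_bot.mp (h2 (Subgroup.mem_top (⟨r, hr⟩ : R)))))

omit hp in
theorem inducedAut_odd {R A : Subgroup G} (hA : A ≤ Subgroup.normalizer (R : Set G)) (hodd : Odd (Nat.card A)) :
    Odd (Nat.card (inducedAut hA)) :=
  hodd.of_dvd_nat (Subgroup.card_range_dvd _)

/-- `R = [R, A]` of rank at most two is abelian or of the form `R₁ R₂`. -/
theorem rankTwo_ambient (hp2 : p ≠ 2) (R A : Subgroup G) (hR : IsPGroup p R) (hR1 : R ≠ ⊥) (hr : PRankLE p 2 R)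
    (hA : A ≤ Subgroup.normalizer (R : Set G)) (hcop : (Nat.card A).Coprime p) (hAodd : Odd (Nat.card A))
    (hRA : ⁅R, A⁆ = R) :
    3 < p ∧ (IsMulCommutative R ∨ ∃ R₁ R₂ : Subgroup G, R₁ ⊔ R₂ = R ∧ (∀ a ∈ R₁, ∀ b ∈ R₂, a * b = b * a) ∧
        ¬ IsMulCommutative R₁ ∧ Nat.card R₁ = p ^ 3 ∧ Monoid.exponent R₁ = p ∧ IsCyclic R₂ ∧
        Subgroup.closure {x : G | x ∈ R₂ ∧ x ^ p = 1} = ⁅R₁, R₁⁆) := by
  have hX := inducedAut_coprime hA hcop
  have hXodd := inducedAut_odd hA hAodd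
  have hgen := inducedAut_gen hA hRA
  have hp3 := three_lt_of_operator hp2 hR hr _ hX hXodd (inducedAut_ne_bot hA hRA hR1)
  refine ⟨hp3, ?_⟩
  set Ω := Subgroup.closure {x : R | x ^ p = 1} with hΩ
  by_cases hsmall : Nat.card Ω ≤ p ^ 2
  · left
    have hm := metacyclic_of_index_powers hp2 hR (index_powers_le _ hp3 hR hsmall le_rfl)
    have h := (metacyclic_action hp2 R A hR hm hA hcop).1
    rwa [hRA] at h
  right
  obtain ⟨hcard, hnab, hcyc, hcen, hZ, hsup⟩ :=
    rankTwo_central hp3 hR hr _ hX hXodd hgen Ω hΩ (not_le.mp hsmall)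
  set C := Subgroup.centralizer (Ω : Set R) with hC
  haveI := hcyc
  refine ⟨Ω.map R.subtype, C.map R.subtype, ?_, ?_, ?_, ?_, ?_, ?_, ?_⟩
  · rw [← Subgroup.map_sup, hsup, ← MonoidHom.range_eq_map, Subgroup.range_subtype]
  · rintro _ ⟨a, ha, rfl⟩ _ ⟨b, hb, rfl⟩
    rw [← map_mul, ← map_mul, Subgroup.mem_centralizer_iff.mp hb a ha]
  · intro h
    refine hnab ⟨⟨fun a b => Subtype.ext (R.subtype_injective ?_)⟩⟩
    have := congrArg Subtype.val (h.is_comm.comm (⟨_, ⟨a, a.2, rfl⟩⟩ : Ω.map R.subtype) ⟨_, ⟨b, b.2, rfl⟩⟩)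
    simpa using this
  · rw [Core.card_map_subtype, hcard]
  · haveI : Nontrivial (Ω.map R.subtype) := by
      rw [← Finite.one_lt_card_iff_nontrivial, Core.card_map_subtype, hcard]
      exact Nat.one_lt_pow (by norm_num) hp.out.one_lt
    refine (Monoid.exponent_eq_prime_iff hp.out).mpr fun g hg => ?_
    obtain ⟨_, ⟨r, hr', rfl⟩⟩ := g
    refine orderOf_eq_prime ?_ hg
    refine Subtype.ext ?_
    rw [Subgroup.coe_pow]
    show (R.subtype r) ^ p = 1
    rw [← map_pow, (mem_omega_iff hp3 hR hr).mp hr', map_one]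
  · exact isCyclic_of_surjective (R.subtype.subgroupMap C) (R.subtype.subgroupMap_surjective C)
  · have hder : ⁅Ω, Ω⁆ = Ω ⊓ C := by
      have hle : ⁅Ω, Ω⁆ ≤ Ω ⊓ C := by
        haveI : Ω.Normal := ⟨fun x hx g => (mem_omega_iff hp3 hR hr).mpr (by
          rw [conj_pow, (mem_omega_iff hp3 hR hr).mp hx, mul_one, mul_inv_cancel])⟩
        set N := Ω ⊓ C
        haveI : (N.subgroupOf Ω).Normal := by
          refine ⟨fun x hx g => ⟨Ω.mul_mem (Ω.mul_mem g.2 x.2) (Ω.inv_mem g.2), ?_⟩⟩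
          have := Subgroup.mem_center_iff.mp (hcen hx.2) g
          show ((g : R) * x * (g : R)⁻¹) ∈ C
          simp only [Subgroup.coe_subtype] at this
          rw [this, mul_inv_cancel_right]
          exact hx.2
        have hidx : Nat.card (Ω ⧸ N.subgroupOf Ω) ≤ p ^ (0 + 2) := by
          have h1 := Subgroup.card_mul_index (N.subgroupOf Ω)
          rw [Nat.card_congr (Subgroup.subgroupOfEquivOfLe (inf_le_left : N ≤ Ω)).toEquiv, hZ, hcard,
            pow_succ' p 2, Subgroup.index_eq_card] at h1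
          rw [Nat.eq_of_mul_eq_mul_left hp.out.pos h1]
        have hb := Subgroup.card_eq_one.mp (le_antisymm
          (show Nat.card (commutator (Ω ⧸ N.subgroupOf Ω)) ≤ 1 by
            simpa using card_commutator_le ((hR.to_subgroup Ω).to_quotient _) hidx) Nat.card_pos)
        rw [Subgroup.commutator_le]
        intro a ha b hb'
        refine Subgroup.mem_subgroupOf.mp (show ⁅(⟨a, ha⟩ : Ω), ⟨b, hb'⟩⁆ ∈ N.subgroupOf Ω from ?_)
        refine (QuotientGroup.eq_one_iff _).mp ?_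
        show QuotientGroup.mk' (N.subgroupOf Ω) _ = 1
        rw [map_commutatorElement]
        exact Subgroup.mem_bot.mp (hb ▸ Subgroup.commutator_mem_commutator (Subgroup.mem_top _) (Subgroup.mem_top _))
      refine Subgroup.eq_of_le_of_card_ge hle ?_
      rw [hZ]
      obtain ⟨k, hk⟩ := (hR.to_subgroup ⁅Ω, Ω⁆).exists_card_eq
      rw [hk]
      refine Nat.le_self_pow (fun h0 => hnab ?_) p
      rw [h0, pow_zero, Subgroup.card_eq_one] at hk
      exact ⟨⟨fun a b => Subtype.ext (commutatorElement_eq_one_iff_mul_comm.mp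
        (Subgroup.mem_bot.mp (hk ▸ Subgroup.commutator_mem_commutator a.2 b.2)))⟩⟩
    rw [← Subgroup.map_commutator, hder]
    refine le_antisymm ((Subgroup.closure_le _).mpr ?_) ?_
    · rintro _ ⟨⟨r, hr', rfl⟩, hrp⟩
      refine ⟨r, ⟨(mem_omega_iff hp3 hR hr).mpr (R.subtype_injective ?_), hr'⟩, rfl⟩
      rw [map_pow, map_one]; exact hrp
    · rintro _ ⟨r, ⟨hr1, hr2⟩, rfl⟩
      refine Subgroup.subset_closure ⟨⟨r, hr2, rfl⟩, ?_⟩
      rw [← map_pow, (mem_omega_iff hp3 hR hr).mp hr1, map_one]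

end Cfsg.Agent.OddLocal.RankTwo
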